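import Mathlib
import Cfsg.Agent.KFI.CoreCD
import Cfsg.Agent.KFI.CoreCG
import Cfsg.Agent.Spor.CZ.Sect
import Cfsg.Agent.Spor.NM.Extra

/-! # Elements of order thirteen in the first Conway group, and the involutions commuting with them -/

set_option autoImplicit false
set_option maxRecDepth 100000
set_option exponentiation.threshold 100000

namespace Cfsg.Agent.KFI.SpC

open Cfsg Subgroup MulAction Cfsg.Agent.GT Cfsg.Agent.Spor Cfsg.Agent.Spor.Leech Cfsg.Agent.Spor.MT Cfsg.Agent.Spor.CZ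
open Cfsg.Agent.Spor.MX Polynomial

theorem fpf13 {x : Co0} (hx : orderOf x = 13) {v : Λ} (h : x • v = v) : v = 0 := by
  induction hn : (nm v).toNat using Nat.strong_induction_on generalizing v with | _ n ih
  obtain ⟨y, z, h1, h2⟩ := exists_short v
  have h3 : Cg (x • y) y := (Cg.smul x ⟨z, h2⟩).symm.trans (h.symm ▸ ⟨z, h2⟩)
  have h4 : nm y < 64 → 13 ∣ Nat.card (stabilizer Co0 y) := fun h4 => by
    have h5 : x ^ 2 ∈ stabilizer Co0 y := by
      rcases h3.eq_or_neg (by rwa [nm_smul]) h4 with h5 | h5 <;>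
        simp only [mem_stabilizer_iff, sq, mul_smul, h5, smul_neg, neg_neg]
    have h6 := orderOf_dvd_natCard _ h5
    rwa [orderOf_pow, hx] at h6
  rcases nm_cases_of_le h1 with rfl | h5 | h5 | h5
  · rw [sub_zero] at h2
    by_contra h0
    have h5 : z ≠ 0 := fun e => h0 (by rw [h2, e, smul_zero])
    have h6 := le_nm h5
    refine h5 (ih _ ?_ (eq_of_two_nsmul_eq (by rw [← co0_smul_nsmul, ← h2, h])) rfl)
    rw [← hn, h2, nm_nsmul]
    omega
  · exact absurd (card_stab32 h5 ▸ h4 (by omega)) (by norm_num)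
  · exact absurd (card_stab48 h5 ▸ h4 (by omega)) (by norm_num)
  · obtain ⟨g, hg⟩ := exists_smul_eq_e8 h5 none
    have h6 := orderOf_dvd_natCard _ (mem_Mon_of_cg (g := g * x * g⁻¹) (p := none)
      (by rw [← hg, mul_smul, mul_smul, inv_smul_smul]; exact h3.smul g))
    rw [show orderOf (g * x * g⁻¹) = 13 from ((MulAut.conj g).orderOf_eq x).trans hx, card_Mon] at h6
    omega

theorem pow_fix {g : Co0} {p : ℕ} (hp : p.Prime) (h5 : 5 ≤ p) (hne : p ≠ 13) (hg : g ^ (13 * p) = 1) (v : Λ) :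
    g ^ p • (g ^ 13 • v - v) = g ^ 13 • v - v := by
  have : Fact (Nat.Prime 13) := ⟨by norm_num⟩
  have h0 : ¬ p ∣ 13 := fun h => hne ((Nat.prime_dvd_prime_iff_eq hp this.out).1 h)
  let _ : Invertible (8 : ℚ) := invertibleOfNonzero (by norm_num)
  let A := matHom ℚ g
  have h1 : (X : ℚ[X]) ^ (13 * p) - 1 = cyclotomic (13 * p) ℚ * (cyclotomic 13 ℚ * (X ^ p - 1)) := by
    have := congrArg (expand ℚ p) (cyclotomic_prime_mul_X_sub_one ℚ 13)
    rw [map_mul, cyclotomic_expand_eq_cyclotomic_mul hp h0, map_sub, map_sub, map_pow, expand_X, map_one] at this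
    rw [← mul_assoc, this, pow_mul']
  have h2 : minpoly ℚ A ∣ X ^ (13 * p) - 1 := minpoly.dvd ℚ A
    (by rw [map_sub, map_pow, aeval_X, map_one, ← map_pow, hg, map_one, sub_self])
  have h3 : IsCoprime (cyclotomic (13 * p) ℚ) (minpoly ℚ A) :=
    (cyclotomic.irreducible_rat (by omega)).coprime_iff_not_dvd.2 fun h => by
      have := natDegree_le_of_dvd (h.trans A.minpoly_dvd_charpoly) A.charpoly_monic.ne_zero
      rw [natDegree_cyclotomic, Matrix.charpoly_natDegree_eq_dim, card_pt,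
        Nat.totient_mul ((Nat.coprime_primes (by norm_num) hp).2 hne.symm), Nat.totient_prime hp,
        Nat.totient_prime (by norm_num)] at this
      omega
  have h4 : aeval A ((X ^ p - 1) * (X ^ 13 - 1) : ℚ[X]) = 0 :=
    aeval_eq_zero_of_dvd_aeval_eq_zero ((h3.symm.dvd_of_dvd_mul_left (h1 ▸ h2)).trans
      ⟨X - 1, by rw [← cyclotomic_prime_mul_X_sub_one ℚ 13]; ring⟩) (minpoly.aeval ℚ A)
  have h6 := congrArg (fun B => B.mulVec fun i => ((v : Vec) i : ℚ)) h4
  have e : ∀ (n : ℕ) (w : Λ), (A ^ n).mulVec (fun i => ((w : Vec) i : ℚ)) = fun i => (((g ^ n • w : Λ) : Vec) i : ℚ) :=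
    fun n w => by rw [← map_pow]; exact matR_mulVec ..
  simp only [map_mul, map_sub, map_pow, aeval_X, map_one, ← Matrix.mulVec_mulVec, Matrix.sub_mulVec,
    Matrix.mulVec_sub, Matrix.one_mulVec, Matrix.zero_mulVec, e] at h6
  refine Subtype.ext (funext fun i => Int.cast_injective (α := ℚ) ?_)
  have h7 := congrFun h6 i
  simp only [smul_sub, AddSubgroupClass.coe_sub, Pi.sub_apply, Pi.zero_apply, Int.cast_sub] at h7 ⊢
  linear_combination h7

theorem not_comm13 {x : Co0} (hx : orderOf x = 13) {y : Spor.Co1} {p : ℕ} (hp : p.Prime) (h5 : 5 ≤ p) (hne : p ≠ 13)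
    (hy : orderOf y = p) : y * co1Pi x ≠ co1Pi x * y := fun h => by
  obtain ⟨z, rfl⟩ := co1_surj y
  have h1 : Commute z x := comm_odd (hx ▸ by decide) h
  obtain ⟨k, hk⟩ := hp.odd_of_ne_two (by omega)
  have h2 : (z ^ 2) ^ p = 1 := by
    rw [← pow_mul, pow_mul']
    rcases co1_eq_one.1 (show co1Pi (z ^ p) = 1 by rw [map_pow, ← hy, pow_orderOf_eq_one]) with e | e <;> rw [e]
    exacts [one_pow _, (sq _).trans negOne_mul_self]
  have h3 : x ^ 13 = 1 := hx ▸ pow_orderOf_eq_one x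
  have h4 := (h1.pow_left 2).mul_pow
  have h6 : (z ^ 2 * x) ^ 13 = 1 := co0_ext fun v => (sub_eq_zero.1 (fpf13 (x := (z ^ 2 * x) ^ p)
    (by rw [h4, h2, one_mul, orderOf_pow, hx, Nat.Coprime.gcd_eq_one ((Nat.coprime_primes (by norm_num) hp).2 hne.symm)])
    (pow_fix hp h5 hne (by rw [h4, pow_mul' (z ^ 2), pow_mul x, h2, h3]; simp) v))).trans (one_smul _ _).symm
  rw [h4, h3, mul_one, ← pow_mul] at h6
  have h7 : p ∣ 2 * 13 := hy ▸ orderOf_dvd_of_pow_eq_one (by rw [← map_pow, h6, map_one])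
  rcases (hp.dvd_mul.1 h7).imp (Nat.prime_dvd_prime_iff_eq hp (by norm_num)).1
    (Nat.prime_dvd_prime_iff_eq hp (by norm_num)).1 with e | e <;> omega

theorem not_abelian5 {P : Subgroup Spor.Co1} (h : Nat.card P = 5 ^ 4) : ¬ P ≤ centralizer P := fun h1 => by
  obtain ⟨_, ⟨e⟩, -⟩ := sect1 (y := 0) orderOf_ze (by norm_num) (by decide)
    (PresT.of_gen j2m_gen (j2_bnd (wp_rels _)) (by decide +kernel)) j5_ok j5_cen j5_z j5_n j5_rel
    (by decide +kernel) (by rw [MJ2.card_J2]; exact card_C5)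
  have h2 := orderOf_co1 (by norm_num) (by decide) orderOf_ze
  have h3 := card_eq_card_quotient_mul_card_subgroup ((zpowers (co1Pi ze)).subgroupOf (centralizer {co1Pi ze}))
  rw [Nat.card_congr e.toEquiv, MJ2.card_J2, Nat.card_congr (subgroupOfEquivOfLe (zpowers_le.2
    (mem_centralizer_singleton_iff.2 rfl))).toEquiv, Nat.card_zpowers, h2] at h3
  obtain ⟨u, -, hu⟩ := NM.exists_conj_mem_of_index (S := P) le_top (p := 5) (by norm_num) (m := 6652442890469376)
    (by rw [card_top, h]; exact card_Co1) (by norm_num) (mem_top (co1Pi ze)) (k := 1)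
    (by rw [pow_one, ← h2, pow_orderOf_eq_one])
  have h4 := card_dvd_of_le (h1.trans (centralizer_le (Set.singleton_subset_iff.2 hu)))
  rw [← show _ = Nat.card (centralizer {u * co1Pi ze * u⁻¹}) from
    Nat.card_congr (cenEquiv (MulAut.conj u) (co1Pi ze)).toEquiv, h, h3] at h4
  omega

theorem lay_13 {x : Co0} (hx : orderOf x = 13) {D : Subgroup Spor.Co1} (hD : co1Pi x ∈ D) : layer D = ⊥ ∨ Lay 1 D := by
  have h0 : Nat.card D ∣ 4157776806543360000 := card_Co1 ▸ card_subgroup_dvd_card D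
  have h1 : orderOf (⟨_, hD⟩ : D) = 13 := by rw [← orderOf_coe]; exact orderOf_co1 (by norm_num) (by decide) hx
  have h2 : ∀ p : ℕ, p.Prime → p ∣ 5 ^ 4 * 7 ^ 2 * 11 * 23 → ¬ p ∣ Nat.card (centralizer {(⟨_, hD⟩ : D)}) :=
    fun p hp a b => by
      have := Fact.mk hp
      obtain ⟨y, hy⟩ := exists_prime_orderOf_dvd_card' p b
      refine not_comm13 hx hp (hp.five_le_of_ne_two_of_ne_three ?_ ?_) ?_ (by rw [orderOf_coe, orderOf_coe, hy])
        (congrArg Subtype.val (mem_centralizer_singleton_iff.1 y.2)) <;> rintro rfl <;> omega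
  by_cases h3 : 13 ∣ Nat.card (layer D)
  · refine Or.inr (lay_of_mem_layer (by norm_num) (fun h => absurd (h.trans h0) (by norm_num)) h1 ?_ h3)
    obtain ⟨c, hc⟩ : 13 ∣ Nat.card (center (centralizer {(⟨_, hD⟩ : D)})) := by
      have := orderOf_dvd_natCard _ (mem_center_iff.2 fun c : centralizer {(⟨_, hD⟩ : D)} =>
        Subtype.ext (mem_centralizer_singleton_iff.1 c.2) :
          (⟨_, mem_centralizer_singleton_iff.2 rfl⟩ : centralizer {(⟨_, hD⟩ : D)}) ∈ center _)
      rwa [← orderOf_coe, h1] at this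
    have h4 := card_dvd_of_primes (m := 2 ^ 21 * 3 ^ 9 * 13) (((card_subgroup_dvd_card _).trans h0).trans (by norm_num)) h2
    rw [card_eq_card_quotient_mul_card_subgroup (center _), hc, ← mul_assoc] at h4
    have := Ch.burnside_isSolvable_of_card_dvd Nat.prime_two Nat.prime_three
      (Nat.dvd_of_mul_dvd_mul_right (by norm_num) ((dvd_mul_right _ _).trans h4))
    have := Group.isSolvable_of_comm (G := center (centralizer {(⟨_, hD⟩ : D)})) fun a b =>
      Subtype.ext (mem_center_iff.1 b.2 a)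
    exact Group.isSolvable_of_ker_le_range (center _).subtype (QuotientGroup.mk' (center _)) (by simp)
  refine Or.inl (layer_eq_bot_of_le_solvable le_rfl (Ch.burnside_isSolvable_of_card_dvd (a := 21) (b := 9)
    Nat.prime_two Nat.prime_three (card_dvd_of_primes (k := 13) (card_dvd_of_primes (k := 5 ^ 4 * 7 ^ 2 * 11 * 23)
      (((card_subgroup_dvd_card _).trans h0).trans (by norm_num)) fun p hp a b => ?_) fun p hp a =>
        (Nat.prime_dvd_prime_iff_eq hp (by norm_num)).1 a ▸ h3)))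
  obtain ⟨P, i, h4, h5, h6, h7⟩ := exists_fpf (by norm_num) hp h1 h3 (h2 p hp a) b
  have h8 : ∀ j, 0 < j → p ^ j ∣ Nat.card D → 13 ∣ p ^ j - 1 → p = 5 ∧ j = 4 := fun j c d e => by
    obtain ⟨t, ht, rfl, f⟩ := pow_cases (L := [(2, 21), (3, 9), (5, 4), (7, 2), (11, 1), (13, 1), (23, 1)]) hp c d
      (h0.trans (by decide +kernel)) (by decide +kernel) (by decide +kernel)
    exact (by decide +kernel : ∀ t ∈ ([(2, 21), (3, 9), (5, 4), (7, 2), (11, 1), (13, 1), (23, 1)] : List (ℕ × ℕ)),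
      ∀ j ≤ t.2, 0 < j → t.1 ∣ 5 ^ 4 * 7 ^ 2 * 11 * 23 → 13 ∣ t.1 ^ j - 1 → t.1 = 5 ∧ j = 4) t ht j f c a e
  have := Fact.mk hp
  have h9 : IsPGroup p P := IsPGroup.of_card h5
  obtain ⟨rfl, rfl⟩ := h8 i h4 (h5 ▸ card_subgroup_dvd_card P) (h5 ▸ h7 P le_rfl h6)
  obtain ⟨j, hj⟩ := (h9.to_inf_left (K := centralizer P)).exists_card_eq
  have h10 := h7 _ inf_le_left ((le_inf h6 (h6.trans (normalizer_le_normalizer_centralizer P))).trans
    inf_normalizer_le_normalizer_inf)
  obtain ⟨-, rfl⟩ := h8 j (Nat.pos_of_ne_zero fun e => PG.inf_centralizer_ne_bot_of_isPGroup h9 h9 le_normalizer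
    (fun f => by simp [f] at h5) (card_eq_one.1 (by rw [hj, e, pow_zero]))) (hj ▸ card_subgroup_dvd_card _) (hj ▸ h10)
  refine not_abelian5 (P := P.map D.subtype) (by rw [card_subtype, h5]) ?_
  rintro _ ⟨y, hy, rfl⟩ _ ⟨z, hz, rfl⟩
  exact congrArg Subtype.val (((eq_of_le_of_card_ge (inf_le_left (b := centralizer P)) (by rw [h5, hj])).ge hy).2 z hz)

theorem lay_j {j : Co0} (h : j * j = negOne) :
    layer (centralizer {co1Pi j}) = ⊥ ∨ Lay 1 (centralizer {co1Pi j}) := by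
  have e : ∀ k, evalW (L k13_R.get) (List.replicate k 0) = L k13_R.get 0 ^ k := fun k => by simp [evalW]
  have h1 : L k13_R.get 0 ^ 26 = negOne := by
    have := k13_ok.eq (v := List.replicate 26 0) (w := [1]) (by decide +kernel)
    rw [← el_rN, ← show L k13_R.get 1 = _ from congrArg LC.el (by decide +kernel), ← e, this]
    simp [evalW]
  have h2 : orderOf (L k13_R.get 0 ^ 4) = 13 := by
    have : Fact (Nat.Prime 13) := ⟨by norm_num⟩
    refine orderOf_eq_prime (by rw [← pow_mul, show 4 * 13 = 26 * 2 from rfl, pow_mul, h1, sq, negOne_mul_self]) ?_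
    exact e 4 ▸ k13_ok.ne (v := List.replicate 4 0) (w := []) (by decide +kernel)
  obtain ⟨_, -, h3⟩ := exists_tJ
  obtain ⟨a, rfl⟩ := h3 j h
  obtain ⟨b, hb⟩ := h3 (L k13_R.get 0 ^ 13) (by rw [← pow_add, h1])
  exact lay_conj (lay_13 h2 (co1_mem_cent (mem_centralizer_singleton_iff.2 (Commute.pow_pow_self _ 4 13))))
    (co1Pi.map_isConj ((isConj_iff.2 ⟨a, rfl⟩).trans (isConj_iff.2 ⟨b, hb⟩).symm))

end Cfsg.Agent.KFI.SpC
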