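import Mathlib
import Cfsg.Agent.KFI.Defs
import Cfsg.Agent.KFI.SpE
import Cfsg.Prelude.Def_Classification2

/-! # Layers of involution centralizers in sporadic groups, cluster E -/

set_option autoImplicit false

namespace Cfsg.Agent.KFI

open Cfsg Subgroup

set_option linter.unusedSectionVars false

variable {G : Type*} [Group G] [Finite G] [IsSimpleGroup G]

theorem lay_Fi22 (h : Spor.IsoFi22 G) (t : G) (ht : orderOf t = 2) :
    layer (centralizer ({t} : Set G)) = ⊥ ∨ Lay 1 (centralizer ({t} : Set G)) := (SpE.fi22 h t ht).2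

theorem lay_Fi23 (h : Spor.IsoFi23 G) (t : G) (ht : orderOf t = 2) :
    layer (centralizer ({t} : Set G)) = ⊥ ∨ Lay 1 (centralizer ({t} : Set G)) := (SpE.fi23 h t ht).2

theorem lay_Fi24 (h : Spor.IsoFi24' G) (t : G) (ht : orderOf t = 2) :
    layer (centralizer ({t} : Set G)) = ⊥ ∨ Lay 1 (centralizer ({t} : Set G)) := (SpE.fi24 h t ht).2

end Cfsg.Agent.KFI
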